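import Cfsg.Agent.Lib.KnownSimple.MultC.TabP

/-!
# The table of the letters
-/

set_option autoImplicit false

namespace Cfsg.Agent.Lib.KnownSimple.MultM.S62L

open Cfsg.Agent.Lib.KnownSimple.MultC

set_option maxRecDepth 1000000 in
/-- The table of the letters. -/
def tn : ZN := (.node 613770107036632487601859047420797914297550219514049767632557434834016670044574722607238538306653740149412574869128116604802006416184972860323631726596 (.node 5933111007805525280639671012924451644996638364418497380634942086831988807896036193787722026061616209033427675175719073904811927791258163988506242908163 (.node 2455080417476328148317329229379030891393699992474349974243037120685052219882249768565942460524588524870046760724011881255372028407578217321843233587207 (.node 12275402084618820631353301228737660773500352219665006318487376202455019965978030057393071226052216841137533534375537844358747683670518931300069571231791 (.node 8592781461548227154377126532811179396563196303464703568536415666581362961696627627685730697802883550701756543799032322000933704411874369256324986372137 .nil .nil) .nil) (.node 12479992122076065094470361687385467101145650819270715749097702833170375929525698244987498827076535763521811217416002243897157041544393582032989767008291 (.node 8679143307884859090235264954983896930866856418985395630031931925963969271888814279844836245457310384149 .nil .nil) .nil)) (.node 3068850523750803364687516392466133490582927086467118242590224802969128962782901875569663670164294726227420893259280721207550945185703982805228528336912 (.node 2045900348992541201427694238566623932313164662018237616943308960851004794667354961079243124374037813707355449428426414440130777239630332090628343332892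 (.node 11047861877690780077395760780023328296355665019726085318082059517940478376152291913878752120729601988858530697554039752184030738925753758024554415456313 .nil .nil) .nil) (.node 9411141598420531389341164313051740343346493627284000909642194076749773035853419685553382640860356543745990178559952067676869643572309119746147550298153 .nil .nil))) (.node 6342291077432548134276996198272935997077579645729639372078234805410542673724890438430746734735448284425262038700254168751353624936091364997021433593900 (.node 613770106703188681571092774026651876239365595421222019354460368063836413332465887841638213132965881633690947500313713830027745576114623110814677598232 (.node 11252451911527777500166027146734166721356048351796228386686315951597279511431469517325234429603951295305425313480401620105100007318052417295729014079548 (.node 11047861877928954224955111140102344814597890953619184997958012406537530985855405034039162437171429551315796588790768569153311962212235321911882826907692 .nil .nil) .nil) (.node 8388191426377454506563254688159839994591465207878635875176864056856063544373788573732138195717169075143707363780004857280761476290852017915724623642662 .nil .nil)) (.node 4500980765182728954297578506956388973087014341922569001468714190998145700140336488653728472631191586178231638141665027183958713038033824414059148869644 (.node 12684582156579950129779067065009633397999496422810007849675233517717580373487137152387604599622367085053649192145097789441340011872745981771920875257917 (.node 5114750869742350309220874041366036095196624983338159785579749057511183509600641339526171875456235608099710402566207317301273452386344757107435276992542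 .nil .nil) .nil) (.node 2864260487436794808828325136628988624818468444579860730566505412758718795946188522901719606855409983946404818950886935695523933071469745710630605750289 .nil .nil))))

end Cfsg.Agent.Lib.KnownSimple.MultM.S62L
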